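import Cfsg.Agent.Mult.Rel

set_option autoImplicit false

/-! Power-commutator presentations of `2`-groups: collection and normal forms. -/

namespace Cfsg.Agent.Cor

open Cfsg.Agent.CGT Cfsg.Agent.Mult Subgroup

variable {G : Type*} [Group G] {V : ℕ → ℕ → List ℕ} {L : ℕ → Prop} {a n : ℕ} {X : ℕ → G}

/-- the relations between the letters of `L` -/
def Rel (V : ℕ → ℕ → List ℕ) (L : ℕ → Prop) (n : ℕ) (X : ℕ → G) : Prop :=
  ∀ i j, L i → L j → i ≤ j → j < n → X j * X i = ev X (V i j)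

/-- collection -/
noncomputable def col (V : ℕ → ℕ → List ℕ) (a n : ℕ) (k : List ℕ → Bool) (fuel : ℕ) (acc stk : List ℕ) : Bool :=
  Nat.rec (motive := fun _ => List ℕ → List ℕ → Bool) (fun _ _ => false)
    (fun _ ih acc stk => List.rec (k acc) (fun i s _ => lit i fun i =>
      List.rec (ih [i] s) (fun j acc' _ => Bool.rec (ih (i :: acc) s)
        (Nat.ble a i && (Nat.ble (Nat.succ j) n && ih acc' (appL (V i j) s))) (Nat.ble i j)) acc) stk) fuel acc stk

theorem col_sound (h : Rel V (a ≤ ·) n X) {k : List ℕ → Bool} {fuel : ℕ} {acc stk : List ℕ}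
    (e : col V a n k fuel acc stk = true) : ∃ r, ev X r.reverse = ev X acc.reverse * ev X stk ∧ k r = true := by
  induction fuel generalizing acc stk with
  | zero => exact absurd e (by simp [col])
  | succ f ih =>
    obtain _ | ⟨i, s⟩ := stk
    · exact ⟨acc, by simp, e⟩
    obtain _ | ⟨j, acc⟩ := acc
    · simpa using ih (acc := [i]) (stk := s) e
    change (Bool.rec (col V a n k f (i :: j :: acc) s) (Nat.ble a i && (Nat.ble (Nat.succ j) n &&
      col V a n k f acc (appL (V i j) s))) (Nat.ble i j) : Bool) = true at e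
    cases hij : Nat.ble i j <;> rw [hij] at e
    · simpa [mul_assoc] using ih e
    · simp only [Bool.and_eq_true, Nat.ble_eq, appL_eq] at e hij
      simpa [mul_assoc, ← h i j e.1 (e.1.trans hij) hij e.2.1] using ih e.2.2

/-- two words collect to the same word -/
noncomputable def eqW (V : ℕ → ℕ → List ℕ) (a n F : ℕ) (u v : List ℕ) : Bool :=
  col V a n (fun r => col V a n (fun r' => beqL r r') F [] v) F [] u

theorem eqW_sound (h : Rel V (a ≤ ·) n X) {F : ℕ} {u v : List ℕ} (e : eqW V a n F u v = true) : ev X u = ev X v := by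
  obtain ⟨r, h1, h2⟩ := col_sound h e
  obtain ⟨r', h3, h4⟩ := col_sound h h2
  simpa [beqL_sound h4, h3] using h1.symm

/-- substitution -/
noncomputable def sub (f : ℕ → List ℕ) (w : List ℕ) : List ℕ := List.rec [] (fun a _ ih => appL (f a) ih) w

theorem ev_sub (X : ℕ → G) (f : ℕ → List ℕ) (w : List ℕ) : ev X (sub f w) = ev (fun k => ev X (f k)) w := by
  induction w with
  | nil => rfl
  | cons a w ih => rw [ev_cons, ← ih, ← ev_append, ← appL_eq]; rfl

/-- all pairs -/
noncomputable def pairs (l : ℕ → Bool) (n : ℕ) (p : ℕ → ℕ → Bool) : Bool :=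
  allLt n fun j => lit j fun j => Bool.rec true (allLt (Nat.succ j) fun i => lit i fun i => Bool.rec true (p i j) (l i)) (l j)

theorem pairs_sound {l : ℕ → Bool} {p : ℕ → ℕ → Bool} (h : pairs l n p = true) {i j : ℕ} (hi : l i = true) (hj : l j = true)
    (h1 : i ≤ j) (h2 : j < n) : p i j = true := by
  have := allLt_iff.1 h j h2
  rw [lit_eq, hj] at this
  simpa [hi] using allLt_iff.1 this i (Nat.lt_succ_of_le h1)

/-- the substitution `f` respects the relations -/
noncomputable def homB (V : ℕ → ℕ → List ℕ) (l : ℕ → Bool) (n : ℕ) (f : ℕ → List ℕ) (V' : ℕ → ℕ → List ℕ) (a m F : ℕ) : Bool :=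
  pairs l n fun i j => eqW V' a m F (appL (f j) (f i)) (sub f (V i j))

theorem homB_sound {l : ℕ → Bool} {f : ℕ → List ℕ} {V' : ℕ → ℕ → List ℕ} {m F : ℕ} (h : Rel V' (a ≤ ·) m X)
    (e : homB V l n f V' a m F = true) : Rel V (l · = true) n fun k => ev X (f k) := fun i j hi hj h1 h2 => by
  simpa [appL_eq, ev_sub] using eqW_sound h (pairs_sound e hi hj h1 h2)

/-- the shape of the relations -/
def Shape (V : ℕ → ℕ → List ℕ) (L : ℕ → Prop) (n : ℕ) : Prop :=
  ∀ i j, L i → L j → i ≤ j → j < n → ∃ t, V i j = (if i = j then t else i :: t) ∧ ∀ r ∈ t, i < r ∧ r < n ∧ L r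

/-- test of the shape -/
noncomputable def shapeB (V : ℕ → ℕ → List ℕ) (l : ℕ → Bool) (n : ℕ) : Bool :=
  pairs l n fun i j => (Nat.beq i j || beqL (V i j) (i :: (V i j).tail)) &&
    allL (Bool.rec (V i j).tail (V i j) (Nat.beq i j)) fun r => Nat.ble (Nat.succ i) r && (Nat.ble (Nat.succ r) n && l r)

theorem shapeB_sound {l : ℕ → Bool} (e : shapeB V l n = true) : Shape V (l · = true) n := fun i j hi hj h1 h2 => by
  have := pairs_sound e hi hj h1 h2
  simp only [Bool.and_eq_true, Bool.or_eq_true, allL_iff, Nat.ble_eq] at this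
  split_ifs with h
  · subst h
    exact ⟨_, rfl, by simpa using this.2⟩
  · rw [show Nat.beq i j = false from Bool.eq_false_iff.2 fun e => h (Nat.eq_of_beq_eq_true e)] at this
    exact ⟨_, beqL_sound (by simpa using this.1), this.2⟩

/-- the subgroups of the series -/
def Sg (X : ℕ → G) (L : ℕ → Prop) (a n : ℕ) : Subgroup G := closure (X '' {j | a ≤ j ∧ j < n ∧ L j})

theorem X_mem {j : ℕ} (h1 : a ≤ j) (h2 : j < n) (h3 : L j) : X j ∈ Sg X L a n := subset_closure ⟨j, ⟨h1, h2, h3⟩, rfl⟩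

theorem ev_mem' {w : List ℕ} (h : ∀ r ∈ w, a ≤ r ∧ r < n ∧ L r) : ev X w ∈ Sg X L a n :=
  Subgroup.list_prod_mem _ fun _ hg => by obtain ⟨r, hr, rfl⟩ := List.mem_map.1 hg; exact subset_closure ⟨r, h r hr, rfl⟩

theorem Sg_le {H : Subgroup G} (h : ∀ j, a ≤ j → j < n → L j → X j ∈ H) : Sg X L a n ≤ H :=
  (closure_le _).2 (by rintro _ ⟨j, hj, rfl⟩; exact h j hj.1 hj.2.1 hj.2.2)

theorem Sg_mono {L' : ℕ → Prop} {b : ℕ} (h : b ≤ a) (h' : ∀ j, L j → L' j) : Sg X L a n ≤ Sg X L' b n :=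
  Sg_le fun j h1 h2 h3 => X_mem (h.trans h1) h2 (h' j h3)

theorem Sg_top (h : n ≤ a) : Sg X L a n = ⊥ := eq_bot_iff.2 (Sg_le fun j h1 h2 _ => by omega)

theorem map_Sg {H : Type*} [Group H] (f : G →* H) : (Sg X L a n).map f = Sg (fun j => f (X j)) L a n := by
  rw [Sg, MonoidHom.map_closure, Set.image_image]; rfl

theorem Sg_step (hS : Shape V L n) (h : Rel V L n X) {g : G} (hg : g ∈ Sg X L a n) :
    g ∈ Sg X L (a + 1) n ∨ (L a ∧ a < n) ∧ (X a)⁻¹ * g ∈ Sg X L (a + 1) n := by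
  by_cases ha : L a ∧ a < n
  swap
  · exact Or.inl (Sg_le (fun j h1 h2 h3 => X_mem (h1.lt_of_ne (by rintro rfl; exact ha ⟨h3, h2⟩)) h2 h3) hg)
  obtain ⟨t, e, ht⟩ := hS a a ha.1 ha.1 le_rfl ha.2
  have h1 : X a * X a ∈ Sg X L (a + 1) n := by rw [h a a ha.1 ha.1 le_rfl ha.2, e, if_pos rfl]; exact ev_mem' ht
  have h2 : ∀ s ∈ Sg X L (a + 1) n, (X a)⁻¹ * s * X a ∈ Sg X L (a + 1) n := fun s hs => by
    simpa using Sg_le (H := (Sg X L (a + 1) n).comap (MulAut.conj (X a)⁻¹).toMonoidHom) (fun j h3 h4 h5 => by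
      obtain ⟨t, e, ht⟩ := hS a j ha.1 h5 (by omega) h4
      simpa [mul_assoc, h a j ha.1 h5 (by omega) h4, e, show a ≠ j by omega] using ev_mem' ht) hs
  simp only [ha, true_and]
  induction hg using closure_induction with
  | mem x hx =>
    obtain ⟨j, hj, rfl⟩ := hx
    exact hj.1.eq_or_lt.elim (fun e => Or.inr (by simp [e])) fun e => Or.inl (X_mem e hj.2.1 hj.2.2)
  | one => exact Or.inl (one_mem _)
  | mul x y _ _ hx hy =>
    rcases hx with hx | hx <;> rcases hy with hy | hy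
    · exact Or.inl (mul_mem hx hy)
    · exact Or.inr (by simpa [mul_assoc] using mul_mem (h2 x hx) hy)
    · exact Or.inr (by simpa [mul_assoc] using mul_mem hx hy)
    · exact Or.inl (by simpa [mul_assoc] using mul_mem (mul_mem h1 (h2 _ hx)) hy)
  | inv x _ hx =>
    refine hx.imp inv_mem fun hx => ?_
    simpa [mul_assoc] using mul_mem (h2 _ (inv_mem hx)) (inv_mem h1)

theorem Sg_ind (hS : Shape V L n) (h : Rel V L n X) {P : ℕ → G → Prop} (h0 : ∀ a, P a 1)
    (h1 : ∀ a g, P (a + 1) g → P a g) (h2 : ∀ a, L a → a < n → ∀ g ∈ Sg X L (a + 1) n, P (a + 1) g → P a (X a * g))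
    (a : ℕ) {g : G} (hg : g ∈ Sg X L a n) : P a g := by
  induction hm : n - a generalizing a g with
  | zero => rw [Sg_top (by omega), mem_bot] at hg; exact hg ▸ h0 a
  | succ m ih =>
    rcases Sg_step hS h hg with h3 | h3
    · exact h1 _ _ (ih _ h3 (by omega))
    · simpa using h2 a h3.1.1 h3.1.2 _ h3.2 (ih _ h3.2 (by omega))

/-- the series is strictly decreasing -/
def Strict (X : ℕ → G) (a n : ℕ) : Prop := ∀ i, a ≤ i → i < n → X i ∉ Sg X (fun _ => True) (i + 1) n

theorem exists_hom {H : Type*} [Group H] {Y : ℕ → H} (hS : Shape V L n) (h : Rel V L n X) (h' : Rel V L n Y)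
    (hs : Strict X a n) : ∃ ψ : Sg X L a n →* H, ∀ j h, ψ ⟨X j, h⟩ = Y j ∨ ¬ (a ≤ j ∧ j < n ∧ L j) := by
  let P : ℕ → G × H := fun j => (X j, Y j)
  have hP : Rel V L n P := fun i j h1 h2 h3 h4 => Prod.ext
    ((h i j h1 h2 h3 h4).trans (map_ev P (MonoidHom.fst G H) _).symm)
    ((h' i j h1 h2 h3 h4).trans (map_ev P (MonoidHom.snd G H) _).symm)
  have e : ∀ b, (Sg P L b n).map (MonoidHom.fst G H) = Sg X L b n := fun b => map_Sg _
  have key : ∀ d ∈ Sg P L a n, d.1 = 1 → d = 1 := fun d hd =>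
    Sg_ind hS hP (P := fun b d => a ≤ b → d.1 = 1 → d = 1) (fun _ _ _ => rfl) (fun b g ih hb => ih (by omega))
      (fun b _ h2 g hg _ hb h3 => absurd (by
        rw [show X b = g.1⁻¹ from eq_inv_of_mul_eq_one_left h3]
        exact inv_mem (Sg_mono le_rfl (fun _ _ => trivial) (e _ ▸ mem_map_of_mem _ hg))) (hs b hb h2)) a hd le_rfl
  let f := (MonoidHom.fst G H).subgroupMap (Sg P L a n)
  have hf : Function.Bijective f := ⟨(injective_iff_map_eq_one f).2 fun d hd =>
    Subtype.ext (key d d.2 (congrArg Subtype.val hd)), MonoidHom.subgroupMap_surjective _ _⟩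
  refine ⟨((MonoidHom.snd G H).comp (Sg P L a n).subtype).comp ((MulEquiv.ofBijective f hf).symm.toMonoidHom.comp
    (MulEquiv.subgroupCongr (e a).symm).toMonoidHom), fun j hj => or_iff_not_imp_right.2 fun h1 => ?_⟩
  have := (MulEquiv.ofBijective f hf).symm_apply_apply ⟨P j, subset_closure ⟨j, not_not.1 h1, rfl⟩⟩
  exact congrArg (fun d => d.1.2) this

theorem card_Sg_le [Finite G] (hS : Shape V L n) (h : Rel V L n X) (a : ℕ) :
    Nat.card (Sg X L a n) ≤ 2 * Nat.card (Sg X L (a + 1) n) := by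
  classical
  have : Function.Surjective fun p : Bool × Sg X L (a + 1) n => if h : (if p.1 then X a * p.2 else p.2) ∈ Sg X L a n then
      (⟨_, h⟩ : Sg X L a n) else 1 := fun g => by
    rcases Sg_step hS h g.2 with h1 | h1
    exacts [⟨(false, ⟨g, h1⟩), by simp⟩, ⟨(true, ⟨_, h1.2⟩), by simp⟩]
  simpa using Nat.card_le_card_of_surjective _ this

theorem card_Sg_le_pow [Finite G] (hS : Shape V L n) (h : Rel V L n X) (m b : ℕ) :
    Nat.card (Sg X L b n) ≤ 2 ^ m * Nat.card (Sg X L (b + m) n) := by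
  induction m with
  | zero => simp
  | succ m ih => exact ih.trans (by rw [pow_succ, mul_assoc]; exact Nat.mul_le_mul_left _ (card_Sg_le hS h _))

theorem strict_of_card [Finite G] (hS : Shape V (fun _ => True) n) (h : Rel V (fun _ => True) n X)
    (hc : 2 ^ n ≤ Nat.card (Sg X (fun _ => True) 0 n)) : Strict X 0 n := fun i _ hi h1 => by
  have h2 := card_le_of_le (Sg_le (X := X) (L := fun _ => True) (a := i) (n := n) (H := Sg X (fun _ => True) (i + 1) n)
    fun j h2 h3 _ => h2.eq_or_lt.elim (fun e => e ▸ h1) fun e => X_mem e h3 trivial)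
  obtain ⟨m, rfl⟩ := Nat.exists_eq_add_of_lt hi
  have h3 := card_Sg_le_pow hS h m (i + 1)
  have h4 := card_Sg_le_pow hS h i 0
  rw [Sg_top (a := i + 1 + m) (by omega), card_bot] at h3
  rw [zero_add] at h4
  have h5 := hc.trans (h4.trans (Nat.mul_le_mul_left _ (h2.trans h3)))
  rw [mul_one, ← pow_add] at h5
  exact absurd ((Nat.pow_le_pow_iff_right one_lt_two).1 h5) (by omega)

theorem Strict.le_card [Finite G] (hs : Strict X 0 n) (m b : ℕ) (hb : b + m = n) :
    2 ^ m ≤ Nat.card (Sg X (fun _ => True) b n) := by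
  induction m generalizing b with
  | zero => exact Nat.card_pos
  | succ m ih =>
    have h1 : Sg X (fun _ => True) (b + 1) n ≤ Sg X (fun _ => True) b n := Sg_mono (by omega) fun _ h => h
    obtain ⟨k, hk⟩ := card_dvd_of_le h1
    have h2 : k ≠ 1 := by
      rintro rfl
      exact hs b b.zero_le (by omega) (eq_of_le_of_card_ge h1 (by omega) ▸ X_mem le_rfl (by omega) trivial)
    have h3 : k ≠ 0 := by rintro rfl; exact Nat.card_pos.ne' hk
    rw [hk, pow_succ]
    exact Nat.mul_le_mul (ih _ (by omega)) (by omega)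

theorem Strict.lead (hs : Strict X 0 n) (hS : Shape V L n) (h : Rel V L n X) {k : ℕ} (hk : k < n) {g : G}
    (hg : g ∈ Sg X L 0 n) : (X k)⁻¹ * g ∈ Sg X (fun _ => True) (k + 1) n → L k := by
  refine Sg_ind hS h (P := fun _ g => (X k)⁻¹ * g ∈ Sg X (fun _ => True) (k + 1) n → L k)
    (fun _ h1 => absurd (by simpa using h1) (hs k k.zero_le hk)) (fun _ _ h => h) (fun b h1 h2 g hg _ h3 => ?_) 0 hg
  have h4 := fun c (hc : c ≤ b + 1) => Sg_mono (L' := fun _ => True) hc (fun _ _ => trivial) hg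
  rcases lt_trichotomy b k with e | rfl | e
  · refine absurd ?_ (hs b b.zero_le h2)
    simpa using mul_mem (mul_mem (X_mem e hk trivial) (Sg_mono (by omega) (fun _ h => h) h3)) (inv_mem (h4 _ le_rfl))
  · exact h1
  · refine absurd ?_ (hs k k.zero_le hk)
    simpa [mul_assoc] using mul_mem (mul_mem (X_mem e h2 trivial) (h4 _ (by omega))) (inv_mem h3)

end Cfsg.Agent.Cor
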