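import Cfsg.Agent.Cor.Col

set_option autoImplicit false

/-! A consistent power-commutator presentation defines a group. -/

namespace Cfsg.Agent.Cor

open Cfsg.Agent.CGT Cfsg.Agent.Mult Subgroup

/-- data of an extension by a group of order two -/
structure Cyc (H : Type) [Group H] where
  /-- the action -/
  α : H →* H
  /-- the square -/
  w : H
  fix : α w = w
  sq : ∀ h, α (α h) = w⁻¹ * h * w

namespace Cyc

variable {H : Type} [Group H] (c : Cyc H)

/-- the extension -/
@[ext] structure Ex (c : Cyc H) where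
  /-- exponent -/
  e : Bool
  /-- the rest -/
  h : H

instance instMulEx : Mul c.Ex :=
  ⟨fun x y => ⟨xor x.e y.e, (if x.e ∧ y.e then c.w else 1) * (if y.e then c.α x.h else x.h) * y.h⟩⟩

instance instOneEx : One c.Ex := ⟨⟨false, 1⟩⟩

instance instInvEx : Inv c.Ex := ⟨fun x => ⟨x.e, if x.e then c.α x.h⁻¹ * c.w⁻¹ else x.h⁻¹⟩⟩

theorem mul_def (x y : c.Ex) :
    x * y = ⟨xor x.e y.e, (if x.e ∧ y.e then c.w else 1) * (if y.e then c.α x.h else x.h) * y.h⟩ := rfl

instance instGroupEx : Group c.Ex := Group.ofLeftAxioms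
  (by rintro ⟨_ | _, x⟩ ⟨_ | _, y⟩ ⟨_ | _, z⟩ <;> simp [mul_def, c.fix, c.sq, mul_assoc])
  (by rintro ⟨_ | _, x⟩ <;> exact Ex.ext rfl (by change _ * (if _ then c.α 1 else 1) * _ = _; simp))
  (by rintro ⟨_ | _, x⟩ <;> refine Ex.ext rfl ?_
      · change 1 * x⁻¹ * x = 1; simp
      · change c.w * c.α (c.α x⁻¹ * c.w⁻¹) * x = 1; simp [c.sq, c.fix, mul_assoc])

instance instFiniteEx [Finite H] : Finite c.Ex :=
  Finite.of_injective (fun x => (x.e, x.h)) fun _ _ h => Ex.ext (congrArg Prod.fst h) (congrArg Prod.snd h)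

/-- the inclusion -/
def inl : H →* c.Ex where
  toFun h := ⟨false, h⟩
  map_one' := rfl
  map_mul' x y := by simp [mul_def]

end Cyc

variable {V : ℕ → ℕ → List ℕ} {n F : ℕ}

/-- the consistency test for the letter `a` -/
noncomputable def stepB (V : ℕ → ℕ → List ℕ) (n F a : ℕ) : Bool :=
  lit a fun a => lit (Nat.succ a) fun b => homB V (Nat.ble b) n (fun j => (V a j).tail) V b n F &&
    (eqW V b n F (sub (fun j => (V a j).tail) (V a a)) (V a a) && allLt n fun j => Nat.ble j a ||
      eqW V b n F (appL (V a a) (sub (fun j => (V a j).tail) (V a j).tail)) (j :: V a a))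

theorem exists_pc (hS : Shape V (fun _ => True) n) (h : ∀ a < n, stepB V n F a = true) :
    ∃ (H : Type) (_ : Group H) (_ : Finite H) (X : ℕ → H), Rel V (fun _ => True) n X ∧ Strict X 0 n ∧
      Sg X (fun _ => True) 0 n = ⊤ := by
  suffices ∀ m a, a + m = n → ∃ (H : Type) (_ : Group H) (_ : Finite H) (X : ℕ → H), Rel V (a ≤ ·) n X ∧ Strict X a n ∧
      Sg X (fun _ => True) a n = ⊤ by simpa using this n 0 (by omega)
  intro m
  induction m with
  | zero => exact fun a ha => ⟨Unit, _, inferInstance, fun _ => 1, fun _ _ _ _ _ _ => rfl, fun i _ _ => by omega,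
      Subsingleton.elim _ _⟩
  | succ m ih =>
    intro a ha
    obtain ⟨H, _, _, X, h1, h2, h3⟩ := ih (a + 1) (by omega)
    have h4 := h a (by omega)
    simp only [stepB, lit_eq, Bool.and_eq_true, allLt_iff, Bool.or_eq_true, Nat.ble_eq] at h4
    obtain ⟨h4, h5, h6⟩ := h4
    have h7 : Sg X (a + 1 ≤ ·) (a + 1) n = ⊤ := top_unique (h3 ▸ Sg_le fun j e1 e2 _ => X_mem e1 e2 e1)
    have sh := fun j (e1 : a ≤ j) (e2 : j < n) => hS a j trivial trivial e1 e2
    obtain ⟨ψ, hψ⟩ := exists_hom (L := (a + 1 ≤ ·)) (fun i j e1 _ e2 e3 => (hS i j trivial trivial e2 e3).imp fun t ht =>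
      ⟨ht.1, fun r hr => ⟨(ht.2 r hr).1, (ht.2 r hr).2.1, by have := ht.2 r hr; omega⟩⟩) h1
      (by simpa using homB_sound h1 h4) h2
    let α : H →* H := ψ.comp ((MonoidHom.id H).codRestrict _ fun x => h7 ▸ mem_top x)
    have e1 : ∀ j, a < j → j < n → α (X j) = ev X (V a j).tail := fun j e1 e2 =>
      (hψ j _).resolve_right (by simp only [not_not]; omega)
    have e2 : ∀ w : List ℕ, (∀ r ∈ w, a < r ∧ r < n ∧ True) → α (ev X w) = ev X (sub (fun j => (V a j).tail) w) :=
      fun w hw => by rw [ev_sub, map_ev]; exact ev_congr fun r hr => e1 r (hw r hr).1 (hw r hr).2.1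
    obtain ⟨t, e3, ht⟩ := sh a le_rfl (by omega)
    rw [if_pos rfl] at e3
    let c : Cyc H := ⟨α, ev X (V a a), (e2 _ (e3 ▸ ht)).trans (eqW_sound h1 h5), fun x => by
      refine Sg_le (H := (α.comp α).eqLocus (MulAut.conj (ev X (V a a))⁻¹).toMonoidHom) (fun j e4 e5 _ => ?_)
        (h3 ▸ mem_top x) |>.trans (by simp)
      obtain ⟨t, e6, ht⟩ := sh j (by omega) e5
      have := eqW_sound h1 ((h6 j e5).resolve_left (by omega))
      rw [appL_eq, ev_append, ← e2 _ (by simpa [e6, show a ≠ j by omega] using ht), ← e1 j e4 e5] at this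
      simpa [mul_assoc, MonoidHom.eqLocus] using eq_inv_mul_of_mul_eq this⟩
    let Y : ℕ → c.Ex := fun j => if j = a then ⟨true, 1⟩ else c.inl (X j)
    have e4 : ∀ w : List ℕ, (∀ r ∈ w, a < r ∧ r < n ∧ True) → ev Y w = c.inl (ev X w) := fun w hw => by
      rw [map_ev]; exact ev_congr fun r hr => if_neg (hw r hr).1.ne'
    have e5 : ∀ b, a < b → Sg Y (fun _ => True) b n = (Sg X (fun _ => True) b n).map c.inl := fun b hb => by
      rw [map_Sg, Sg, Sg, Set.image_congr fun j hj => if_neg (by have := hj.1; omega)]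
    refine ⟨c.Ex, c.instGroupEx, inferInstance, Y, fun i j e6 _ e7 e8 => ?_, fun i e6 e7 e8 => ?_, top_unique ?_⟩
    · obtain ⟨t, e9, ht⟩ := hS i j trivial trivial e7 e8
      rcases e6.eq_or_lt with rfl | e6
      · rcases e7.eq_or_lt with rfl | e7
        · rw [e4 _ (e3 ▸ ‹_›)]; simp [Y, Cyc.mul_def, Cyc.inl, c]
        · have := e1 j e7 e8
          rw [e9, if_neg e7.ne] at this ⊢
          rw [ev_cons, e4 _ ht]; simp [Y, Cyc.mul_def, Cyc.inl, e7.ne', c, this]
      · rw [e4 _ fun r hr => by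
          rw [e9] at hr; split_ifs at hr
          · have := ht r hr; exact ⟨by omega, this.2⟩
          · rcases List.mem_cons.1 hr with rfl | hr
            · exact ⟨e6, by omega, trivial⟩
            · have := ht r hr; exact ⟨by omega, this.2⟩, ← h1 i j e6 (e6.trans_le e7) e7 e8]
        simp [Y, e6.ne', (e6.trans_le e7).ne']
    · rw [e5 _ (by omega)] at e8
      obtain ⟨x, hx, e⟩ := e8
      rcases e6.eq_or_lt with rfl | e6
      · simpa [Y, Cyc.inl] using e
      · simp only [Y, e6.ne', if_false] at e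
        exact h2 i e6 e7 ((show x = X i from congrArg Cyc.Ex.h e) ▸ hx)
    · have e6 : ∀ x, c.inl x ∈ Sg Y (fun _ => True) a n := fun x =>
        Sg_mono a.le_succ (fun _ h => h) (e5 _ a.lt_succ_self ▸ mem_map_of_mem _ (h3 ▸ mem_top x))
      rintro ⟨_ | _, x⟩ -
      · exact e6 x
      · simpa [Y, Cyc.mul_def, Cyc.inl] using mul_mem (X_mem (X := Y) le_rfl (by omega) trivial) (e6 x)

/-- the relations of the abelianisation -/
noncomputable def abV (V : ℕ → ℕ → List ℕ) (i j : ℕ) : List ℕ := Bool.rec [i, j] (V i j) (Nat.beq i j)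

/-- a letter in the commutator subgroup; the list contains codes `i * n + j` of rules -/
noncomputable def commB (V : ℕ → ℕ → List ℕ) (n F z : ℕ) (R : List ℕ) : Bool :=
  allL R (fun c => Nat.ble (c / n) (c % n) && Nat.ble (Nat.succ (c % n)) n) &&
    eqW (abV V) 0 n F (sub (fun c => V (c / n) (c % n)) R) (z :: sub (fun c => [c % n, c / n]) R)

theorem commB_sound {G : Type*} [Group G] {X : ℕ → G} (h : Rel V (fun _ => True) n X) {z : ℕ} {R : List ℕ}
    (e : commB V n F z R = true) : X z ∈ commutator G := by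
  simp only [commB, Bool.and_eq_true, allL_iff, Nat.ble_eq] at e
  have h1 : Rel V (fun _ => True) n fun k => Abelianization.of (X k) := fun i j _ _ h1 h2 => by
    rw [← map_mul, h i j trivial trivial h1 h2, map_ev]
  have h2 := eqW_sound (X := fun k => Abelianization.of (X k)) (fun i j _ _ h2 h3 => by
    unfold abV
    cases e : Nat.beq i j
    · simp [mul_comm]
    · exact h1 i j trivial trivial h2 h3) e.2
  rw [ev_cons, ev_sub, ev_sub, ev_congr (g' := fun c => ev (fun k => Abelianization.of (X k)) [c % n, c / n]) fun c hc => by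
    simp [← h1 _ _ trivial trivial (e.1 c hc).1 (e.1 c hc).2], right_eq_mul] at h2
  exact (QuotientGroup.eq_one_iff _).1 h2

/-- the word coded by `c` -/
noncomputable def dec (c : ℕ) : List ℕ :=
  Nat.rec (motive := fun _ => ℕ → List ℕ) (fun _ => [])
    (fun _ ih c => lit c fun c => Bool.rec (Nat.pred (Nat.land c 127) :: ih (Nat.shiftRight c 7)) [] (Nat.beq c 0)) 8 c

/-- entry `k` of a table of words -/
noncomputable def tabW (T k : ℕ) : List ℕ := dec (Nat.land (Nat.shiftRight T (Nat.mul 56 k)) 0xffffffffffffff)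

/-- a table of relations -/
noncomputable def tabV (T n i j : ℕ) : List ℕ :=
  Bool.rec (i :: j :: tabW T (Nat.add (Nat.mul i n) j)) (tabW T (Nat.add (Nat.mul i n) j)) (Nat.beq i j)

end Cfsg.Agent.Cor
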