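import Cfsg.Agent.Mult.Assemble

set_option autoImplicit false

/-! Corestriction of a stable central extension. -/

namespace Cfsg.Agent.Cor

open Subgroup

universe u

variable {G : Type u} {Γ Z : Type*} [Group G] [Group Γ] [CommGroup Z]

/-- normalised cocycles -/
structure Coc (G Z : Type*) [Group G] [CommGroup Z] where
  /-- the cocycle -/
  c : G → G → Z
  one : ∀ g, c 1 g = 1
  one' : ∀ g, c g 1 = 1
  assoc : ∀ a b d, c a b * c (a * b) d = c b d * c a (b * d)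

namespace Coc

variable (C : Coc G Z)

/-- the extension -/
@[ext] structure Ex (C : Coc G Z) where
  /-- image -/
  g : G
  /-- central part -/
  z : Z

instance instMulCoEx : Mul C.Ex := ⟨fun x y => ⟨x.g * y.g, x.z * y.z * C.c x.g y.g⟩⟩

instance instOneCoEx : One C.Ex := ⟨⟨1, 1⟩⟩

instance instInvCoEx : Inv C.Ex := ⟨fun x => ⟨x.g⁻¹, (x.z * C.c x.g⁻¹ x.g)⁻¹⟩⟩

theorem mul_def (x y : C.Ex) : x * y = ⟨x.g * y.g, x.z * y.z * C.c x.g y.g⟩ := rfl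

instance instGroupCoEx : Group C.Ex := Group.ofLeftAxioms
  (fun x y z => Ex.ext (mul_assoc _ _ _) (by
    change x.z * y.z * C.c x.g y.g * z.z * C.c (x.g * y.g) z.g = x.z * (y.z * z.z * C.c y.g z.g) * C.c x.g (y.g * z.g)
    rw [mul_right_comm _ _ z.z, mul_assoc, C.assoc]; simp only [mul_assoc]))
  (fun x => Ex.ext (one_mul _) (by change 1 * x.z * C.c 1 x.g = _; simp [C.one]))
  (fun x => Ex.ext (inv_mul_cancel _) (by change _⁻¹ * x.z * _ = 1; rw [mul_assoc]; exact inv_mul_cancel _))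

/-- the projection -/
def pr : C.Ex →* G := MonoidHom.mk' Ex.g fun _ _ => rfl

theorem stem [Finite G] [Finite Z] (h : ∀ z, (⟨1, z⟩ : C.Ex) ∈ commutator C.Ex) : Mult.Stem G Z := by
  haveI : Finite C.Ex := Finite.of_injective (fun x => (x.g, x.z)) fun _ _ h =>
    Ex.ext (congrArg Prod.fst h) (congrArg Prod.snd h)
  refine Mult.Stem.of_any (σ := C.pr) ⟨fun g => ⟨⟨g, 1⟩, rfl⟩, ?_, ?_⟩
    ⟨⟨fun x => x.1.z, fun z => ⟨⟨1, z⟩, rfl⟩, fun x => Subtype.ext (Ex.ext x.2.symm rfl), fun _ => rfl⟩, ?_⟩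
  · rintro ⟨_, z⟩ (rfl : _ = 1)
    exact mem_center_iff.2 fun y => by simp [mul_def, C.one, C.one', mul_comm]
  · rintro ⟨_, z⟩ (rfl : _ = 1)
    exact h z
  · exact fun x y => show _ * _ * C.c x.1.g _ = _ by rw [show x.1.g = 1 from x.2, C.one, mul_one]

end Coc

/-- conjugation by `g` lifts on `A` -/
def LiftOn (π : Γ →* G) (ι : Z →* Γ) (g : G) (A : Set G) : Prop :=
  ∃ ψ : Γ → Γ, (∀ a b, π a ∈ A → π b ∈ A → ψ (a * b) = ψ a * ψ b) ∧ (∀ a, π a ∈ A → π (ψ a) = g * π a * g⁻¹) ∧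
    ∀ z, ψ (ι z) = ι z

variable {π : Γ →* G} {ι : Z →* Γ}

theorem LiftOn.mono {g : G} {A B : Set G} (h : LiftOn π ι g A) (e : B ⊆ A) : LiftOn π ι g B := by
  obtain ⟨ψ, h1, h2, h3⟩ := h
  exact ⟨ψ, fun a b ha hb => h1 a b (e ha) (e hb), fun a ha => h2 a (e ha), h3⟩

theorem LiftOn.mul {g g' : G} {A B : Set G} (h : LiftOn π ι g A) (h' : LiftOn π ι g' B) :
    LiftOn π ι (g * g') {s | s ∈ B ∧ g' * s * g'⁻¹ ∈ A} := by
  obtain ⟨ψ, h1, h2, h3⟩ := h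
  obtain ⟨ψ', h4, h5, h6⟩ := h'
  refine ⟨fun a => ψ (ψ' a), fun a b ha hb => ?_, fun a ha => ?_, fun z => by simp only [h6, h3]⟩ <;> beta_reduce
  · rw [h4 a b ha.1 hb.1, h1 _ _ (h5 a ha.1 ▸ ha.2) (h5 b hb.1 ▸ hb.2)]
  · rw [h2 _ (h5 a ha.1 ▸ ha.2), h5 a ha.1]; group

theorem liftOn_inner (hc : ∀ z a, ι z * a = a * ι z) (b : Γ) : LiftOn π ι (π b) Set.univ :=
  ⟨fun a => b * a * b⁻¹, fun _ _ _ _ => by group, fun _ _ => by simp, fun z => by simp only [← hc, mul_inv_cancel_right]⟩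

theorem stem_of_stable [Finite G] [Finite Z] (hι : Function.Injective ι) (hc : ∀ z a, ι z * a = a * ι z)
    (hk : ∀ a, π a = 1 ↔ ∃ z, ι z = a) (hd : ∀ z, ι z ∈ commutator Γ) (hi : π.range.index.Coprime (Nat.card Z))
    (h : ∀ g, LiftOn π ι g {s | s ∈ π.range ∧ g * s * g⁻¹ ∈ π.range}) : Mult.Stem G Z := by
  classical
  choose ψ h1 h2 h3 using h
  haveI := Fintype.ofFinite (G ⧸ π.range)
  obtain ⟨o, τ, ho, ho'⟩ : ∃ (o : G ⧸ π.range → G ⧸ π.range) (τ : G ⧸ π.range → Γ), (∀ ω, π (τ ω) • o ω = ω) ∧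
      ∀ a ω, o (π a • ω) = o ω := by
    letI := MulAction.compHom (G ⧸ π.range) π
    have : ∀ ω : G ⧸ π.range, ∃ a : Γ, a • (Quotient.mk (MulAction.orbitRel Γ _) ω).out = ω := fun ω =>
      (MulAction.orbitRel Γ _).symm (Quotient.mk_out ω)
    choose τ hτ using this
    exact ⟨_, τ, hτ, fun a ω => congrArg Quotient.out (Quotient.sound ⟨a, rfl⟩)⟩
  obtain ⟨δ, d0, d1⟩ : ∃ δ : Γ → G ⧸ π.range → Γ, (∀ a a' ω, δ (a * a') ω = δ a (π a' • ω) * δ a' ω) ∧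
      ∀ a ω, δ a ω = (τ (π a • ω))⁻¹ * a * τ ω := ⟨_, fun _ _ _ => by simp [mul_smul, mul_assoc], fun _ _ => rfl⟩
  obtain ⟨s, s1, s2, s3, s4⟩ : ∃ s : G → G ⧸ π.range → G, (∀ g ω, s g ω ∈ π.range) ∧
      (∀ g g' ω, s (g * g') ω = s g (g' • ω) * s g' ω) ∧ (∀ ω, s 1 ω = 1) ∧
      ∀ a ω, (o ω).out⁻¹ * π (δ a ω) * (o ω).out⁻¹⁻¹ = s (π a) ω := by
    have hr : ∀ ω, ((π (τ ω) * (o ω).out : G) : G ⧸ π.range) = ω := fun ω =>
      (MulAction.Quotient.mk_smul_out _ _ _).trans (ho ω)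
    refine ⟨fun g ω => (π (τ (g • ω)) * (o (g • ω)).out)⁻¹ * (g * (π (τ ω) * (o ω).out)), fun g ω => ?_,
      fun g g' ω => by simp [mul_smul, mul_assoc], fun ω => by simp, fun a ω => by simp [d1, ho', mul_assoc]⟩
    rw [← QuotientGroup.eq, hr]
    conv_lhs => rw [← hr ω]
    rfl
  obtain ⟨σ, σ1, σ2⟩ : ∃ σ : G → Γ, σ 1 = 1 ∧ ∀ x ∈ π.range, π (σ x) = x :=
    ⟨fun x => if x = 1 then 1 else π.toFun.invFun x, if_pos rfl, fun x hx => by
      beta_reduce; split_ifs with e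
      exacts [by simp [e], Function.invFun_eq hx]⟩
  have hj : ∀ a, π a = 1 → ι (Function.invFun ι a) = a := fun a ha => Function.invFun_eq ((hk a).1 ha)
  obtain ⟨c, c1⟩ : ∃ c : G → G → Z, ∀ x ∈ π.range, ∀ y ∈ π.range, ι (c x y) = σ x * σ y * (σ (x * y))⁻¹ :=
    ⟨fun x y => Function.invFun ι _, fun x hx y hy =>
      hj _ (by simp only [map_mul, map_inv, σ2 x hx, σ2 y hy, σ2 _ (mul_mem hx hy), mul_inv_cancel])⟩
  let C : Coc G Z := ⟨fun g g' => ∏ ω, c (s g (g' • ω)) (s g' ω),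
    fun g => Finset.prod_eq_one fun ω _ => hι (by rw [c1 _ (s1 _ _) _ (s1 _ _)]; simp [s3, σ1]),
    fun g => Finset.prod_eq_one fun ω _ => hι (by rw [c1 _ (s1 _ _) _ (s1 _ _)]; simp [s3, σ1]), fun a b d => by
      rw [← Equiv.prod_comp (MulAction.toPerm d), ← Finset.prod_mul_distrib, ← Finset.prod_mul_distrib]
      refine Finset.prod_congr rfl fun ω _ => hι ?_
      simp only [MulAction.toPerm_apply, s2, mul_smul, map_mul]
      rw [c1 _ (s1 a _) _ (mul_mem (s1 _ _) (s1 _ _)), ← mul_assoc (ι _), ← mul_assoc (ι _), hc _ (σ _),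
        c1 _ (s1 _ _) _ (s1 _ _), c1 _ (s1 _ _) _ (s1 _ _), c1 _ (mul_mem (s1 _ _) (s1 _ _)) _ (s1 _ _)]
      simp only [mul_assoc, inv_mul_cancel_left]⟩
  have d2 : ∀ a ω, π (δ a ω) ∈ {x | x ∈ π.range ∧ (o ω).out⁻¹ * x * (o ω).out⁻¹⁻¹ ∈ π.range} := fun a ω =>
    ⟨⟨_, rfl⟩, s4 a ω ▸ s1 _ _⟩
  obtain ⟨b, b1⟩ : ∃ b : Γ → G ⧸ π.range → Z, ∀ a ω, ι (b a ω) = ψ (o ω).out⁻¹ (δ a ω) * (σ (s (π a) ω))⁻¹ :=
    ⟨fun a ω => Function.invFun ι _, fun a ω =>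
      hj _ (by rw [map_mul, map_inv, h2 _ _ (d2 a ω), s4, σ2 _ (s1 _ _), mul_inv_cancel])⟩
  let f : Γ →* C.Ex := MonoidHom.mk' (fun a => ⟨π a, ∏ ω, b a ω⟩) fun a a' => Coc.Ex.ext (map_mul π a a') (by
    change _ = (∏ ω, b a ω) * (∏ ω, b a' ω) * ∏ ω, c (s (π a) (π a' • ω)) (s (π a') ω)
    rw [← Equiv.prod_comp (MulAction.toPerm (π a')) (b a), ← Finset.prod_mul_distrib, ← Finset.prod_mul_distrib]
    refine Finset.prod_congr rfl fun ω _ => hι ?_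
    have := d2 a (π a' • ω)
    rw [ho'] at this
    rw [map_mul, map_mul, MulAction.toPerm_apply, c1 _ (s1 _ _) _ (s1 _ _), b1 a, mul_assoc, ← mul_assoc (ι _),
      ← mul_assoc (ι _), hc _ (σ _), b1, b1, d0, h1 _ _ _ this (d2 a' ω), ho', map_mul, s2]
    simp only [mul_assoc, inv_mul_cancel_left])
  refine C.stem fun z => ?_
  obtain ⟨z, rfl⟩ := (powCoprime hi.symm).surjective z
  have e : π (ι z) = 1 := (hk _).2 ⟨z, rfl⟩
  have : f (ι z) = ⟨1, z ^ π.range.index⟩ := Coc.Ex.ext e (by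
    change ∏ ω, b (ι z) ω = z ^ π.range.index
    rw [Finset.prod_congr rfl fun ω _ => (hι (by
      rw [b1, show δ (ι z) ω = ι z by simp [d1, e, mul_assoc, hc z], h3, e, s3, σ1, inv_one, mul_one]) : b (ι z) ω = z),
      Finset.prod_const, index, Nat.card_eq_fintype_card, Finset.card_univ])
  rw [powCoprime_apply, ← this]
  exact (map_commutator ⊤ ⊤ f).le.trans (commutator_mono le_top le_top) ⟨_, hd z, rfl⟩

end Cfsg.Agent.Cor
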