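import Cfsg.Agent.Mult.Upper

set_option autoImplicit false

/-! The test for the upper bound with sparse coefficients. -/

namespace Cfsg.Agent.Cor

open Cfsg.Agent.CGT Cfsg.Agent.Mult

/-- the number with the given gaps between its binary digits one -/
noncomputable def gapN (gs : List ℕ) : ℕ := List.rec 0 (fun g _ c => 2 ^ g * (1 + 2 * c)) gs

/-- `List.drop` for the kernel -/
noncomputable def drp (g : ℕ) (l : List ℕ) : List ℕ :=
  Nat.rec (motive := fun _ => List ℕ → List ℕ) (fun l => l) (fun _ ih l => List.rec [] (fun _ t _ => ih t) l) g l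

/-- sparse linear combination -/
noncomputable def lcS (gs l : List ℕ) (acc : ℕ) : ℕ :=
  List.rec (motive := fun _ => List ℕ → ℕ → ℕ) (fun _ acc => acc)
    (fun g _ ih l acc => List.rec acc (fun v t _ => lit (Nat.add acc v) fun a => ih t a) (drp g l)) gs l acc

theorem lc0_drp (g : ℕ) (l : List ℕ) (c : ℕ) : lc0 2 l (2 ^ g * c) = lc0 2 (drp g l) c := by
  induction g generalizing l with
  | zero => rw [pow_zero, one_mul]; rfl
  | succ g ih =>
    obtain _ | ⟨v, l⟩ := l
    · exact (lc0_nil _ _).trans (lc0_nil _ _).symm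
    · rw [lc0_cons, pow_succ', mul_assoc, Nat.mul_mod_right, Nat.mul_div_cancel_left _ two_pos, ih, zero_mul, zero_add]; rfl

theorem lcS_eq (gs l : List ℕ) (acc : ℕ) : lcS gs l acc = lc 2 l (gapN gs) acc := by
  rw [lc_eq]
  induction gs generalizing l acc with
  | nil => exact (congrArg (acc + ·) (lc0_zero 2 l)).symm
  | cons g gs ih =>
    change List.rec acc (fun v t _ => lcS gs t (acc + v)) (drp g l) = acc + lc0 2 l (2 ^ g * (1 + 2 * gapN gs))
    rw [lc0_drp]
    obtain _ | ⟨v, t⟩ := drp g l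
    · rw [lc0_nil]; rfl
    · rw [lc0_cons, Nat.add_mul_mod_self_left, Nat.add_mul_div_left _ _ two_pos, ← add_assoc]
      simpa using ih t (acc + v)

/-- certificate with sparse coefficients -/
noncomputable def spC (F h : ℕ) (bs : List (List ℕ)) (zs : List (List ℕ × ℕ × ℕ)) (gs : List (List (List ℕ))) : Mult.Cert :=
  ⟨F, h, bs, zs, mapL (mapL gapN) gs⟩

/-- the whole test -/
noncomputable def check (D : PC) (c : Mult.Cert) (gs : List (List (List ℕ))) (ss : List Spec) : Bool :=
  D.okB && (D.sizeB c 0 && D.vecsK (D.M c) c.F ss fun vs => D.sizeB c (len vs) && (D.ordB c vs &&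
    litL (mapL (vecOf D.B 0) c.bs) fun bv => litL (appL (mapL (fun z => vecOf D.B 0 z.1) c.zs) vs) fun all =>
      allLt D.n fun i => lit i fun i => allLt D.n fun j => lit j fun j => Nat.ble (Nat.succ j) i ||
        zm D.p (D.mask c) (lcS (nth [] (nth [] gs i) j) all
          (Nat.add (Nat.add (Nat.pow D.B (Nat.add (Nat.mul i D.n) j)) (Bool.rec (nth 0 bv j) 0 (Nat.beq i j)))
            (Nat.mul (Nat.sub D.p 1) (lc D.b bv (D.W i j) 0))))))

theorem pbound_of_check {G : Type*} [Group G] [Finite G] (D : PC) {F h : ℕ} {bs : List (List ℕ)}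
    {zs : List (List ℕ × ℕ × ℕ)} {gs : List (List (List ℕ))} {ss : List Spec} (hp : D.p = 2) (x : ℕ → G)
    (hx : ∀ r ∈ D.rules, ev x r.1 = ev x r.2) (hcard : D.p ^ D.n ∣ Nat.card (Subgroup.closure (x '' Set.Iio D.n)))
    (hG : ¬ D.p ^ (D.n + 1) ∣ Nat.card G) (e : check D (spC F h bs zs gs) gs ss = true) :
    PBound G D.p (spC F h bs zs gs).e := by
  simp only [check, Bool.and_eq_true] at e
  have ok := PC.ok_of_okB D e.1
  refine PC.pbound_of ok (hp ▸ Nat.prime_two) (PC.rules_sound hx) hcard hG fun Γ C _ _ ι X T hι S => ?_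
  obtain ⟨vs, h1, h2⟩ := PC.vecsK_sound ok S hι (PC.one_le_M ok _) (PC.cb_lt_of_sizeB e.2.1) e.2.2
  simp only [Bool.and_eq_true, litL_eq, lcS_eq, allLt_iff (k := D.n), mapL_eq, appL_eq] at h2
  refine PC.lin_sound ok h1 ⟨h2.1, h2.2.1, fun i hi => ?_⟩
  have : ∀ i j, nth 0 (nth [] (spC F h bs zs gs).cs i) j = gapN (nth [] (nth [] gs i) j) := fun i j => by
    simp only [spC, mapL_eq, nth_eq, funext (mapL_eq gapN)]
    exact (congrArg (List.getD · j 0) (List.getD_map gs [] (List.map gapN))).trans (List.getD_map _ [] gapN)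
  simpa only [PC.rowB, this, hp, lit_eq] using h2.2.2 i hi

end Cfsg.Agent.Cor
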