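import Cfsg.Agent.Cor.Ext
import Cfsg.Agent.Cor.Stable
import Cfsg.Agent.Tw.BN
import Cfsg.Agent.Cor.Up

set_option autoImplicit false

/-! Central extensions of groups with a BN-pair from extensions of the Sylow subgroup. -/

namespace Cfsg.Agent.Cor

open Cfsg.Agent.CGT Cfsg.Agent.Mult Subgroup Cfsg.Lie Cfsg.Agent.Tw Equiv

variable {G : Type*} [Group G] {Γ Z : Type*} [Group Γ] [CommGroup Z] {π : Γ →* G} {ι : Z →* Γ}

section
open Cfsg.Agent.Chev
variable {D : ChevalleyDatum} {C : Cert D} {F : Type*} [Field F] {S : Sys C F G} {T : Stb S} {K : Subgroup G}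

theorem liftOn_all (hK : T.Good K) (hπ : π.range = S.Up ⊓ K) (hc : ∀ z a, ι z * a = a * ι z)
    (hH : ∀ a ∈ K, a ∈ S.H → LiftOn π ι a π.range)
    (hn : ∀ i, ∃ g ∈ K, S.Over g (C.w0 (T.orb i)) ∧ LiftOn π ι g ↑(S.UJ (T.orb i) ⊓ K)) {g : G} (hg : g ∈ K) :
    LiftOn π ι g {s | s ∈ π.range ∧ g * s * g⁻¹ ∈ π.range} := by
  obtain ⟨w, hw, h1⟩ := S.exists_cell g
  obtain ⟨h0, u, h2, hu, m, h3, hm, u', h4, hu', rfl⟩ := hK.nf hg h1
  obtain ⟨a, rfl⟩ : u ∈ π.range := hπ ▸ ⟨hu, h2⟩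
  obtain ⟨b, rfl⟩ : u' ∈ π.range := hπ ▸ ⟨S.Uw_le_Up _ hu', h4⟩
  have key : ∀ m ∈ K, S.Over m w → LiftOn π ι m {s | s ∈ π.range ∧ m * s * m⁻¹ ∈ π.range} := by
    refine Stb.fix_induction (P := fun w => ∀ m ∈ K, S.Over m w → LiftOn π ι m {s | s ∈ π.range ∧ m * s * m⁻¹ ∈ π.range})
      (fun m h1 h2 => (hH m h1 h2.mem_H).mono fun _ h => h.1) (fun w hw _ i hi ih m h1 h2 => ?_) hw h0
    obtain ⟨n, h3, h4, h5⟩ := hn i
    have := (ih _ (mul_mem h1 (inv_mem h3)) (by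
      simpa [mul_assoc, Cert.w0_mul_self] using h2.mul (Stb.over_w0_inv h4))).mul h5
    rw [inv_mul_cancel_right, hπ] at this
    refine hπ ▸ this.mono fun s hs => ?_
    have h6 := S.U_mono (T' := {r | C.Pos r ∧ ¬ C.InJ (T.orb i) r}) (fun r hr => ⟨hr.1, fun h =>
      (Cert.pos_w0_iff h).1 ((Cert.pos_iff_of_min (C.W_le_Aut hw) hi ((Cert.inJ_map (C.w0_mem _) r).2 h)).1 hr.2) hr.1⟩)
      (S.mem_inter Cert.closed_pos (Cert.nil_of_pos fun _ h => h) (Cert.closed_pos.preimage h2.mem_Aut)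
        ((Cert.nil_of_pos fun _ h => h).preimage h2.mem_W) hs.1.1 (by
          simpa [mul_assoc] using h2.acts.inv_conj_mem (T' := (w * C.w0 (T.orb i)) ⁻¹' {r | C.Pos r})
            (fun r hr => by simpa using hr) hs.2.1))
    exact ⟨⟨h6, hs.1.2⟩, ⟨h4.acts.conj_mem (fun r hr => Cert.pos_map_of_not_inJ (C.w0_mem _) hr.1 hr.2) h6,
      K.mul_mem (K.mul_mem h3 hs.1.2) (K.inv_mem h3)⟩, by simpa [mul_assoc] using hs.2⟩
  refine (((liftOn_inner hc a).mul (key m h3 hm)).mul (liftOn_inner hc b)).mono fun s hs => ⟨trivial, ⟨?_, ?_⟩, trivial⟩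
  · exact mul_mem (mul_mem ⟨b, rfl⟩ hs.1) (inv_mem ⟨b, rfl⟩)
  · have : π a ∈ π.range := ⟨a, rfl⟩
    simpa [mul_assoc] using mul_mem (mul_mem (inv_mem this) hs.2) this

end

theorem hom_ext {X : ℕ → Γ} {L : ℕ → Prop} {m : ℕ} (f f' : Sg X L 0 m →* G) (b : ℕ)
    (e : ∀ j h, b ≤ j → j < m → L j → f ⟨X j, h⟩ = f' ⟨X j, h⟩) (a : Sg X L 0 m) (ha : a.1 ∈ Sg X L b m) : f a = f' a := by
  obtain ⟨c, e1, e2⟩ := Sg_le (H := (f.eqLocus f').map (Subgroup.subtype _))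
    (fun j e1 e2 e3 => ⟨⟨_, X_mem j.zero_le e2 e3⟩, e j _ e1 e2 e3, rfl⟩) ha
  exact (Subtype.ext e2 : c = a) ▸ e1

/-- a big presentation `Vb`, a presentation `V` with central letters `n, …, m - 1`, and a map `gens` between them -/
structure Dat where
  /-- number of big letters -/
  N : ℕ
  /-- number of small letters -/
  n : ℕ
  /-- number of letters of the extension -/
  m : ℕ
  /-- fuel -/
  F : ℕ
  /-- big relations -/
  Vb : ℕ → ℕ → List ℕ
  /-- small relations -/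
  V : ℕ → ℕ → List ℕ
  /-- small letters as big words -/
  gens : ℕ → List ℕ

/-- a fusion map -/
structure Mp where
  /-- big letters in the domain -/
  lb : ℕ → Bool
  /-- small letters in the domain -/
  l : ℕ → Bool
  /-- images of big letters -/
  cj : ℕ → List ℕ
  /-- images of small letters -/
  im : ℕ → List ℕ

/-- a packed fusion map -/
noncomputable def mp (a b c d : ℕ) : Mp :=
  ⟨fun k => Nat.beq (Nat.land (Nat.shiftRight a k) 1) 1, fun k => Nat.beq (Nat.land (Nat.shiftRight b k) 1) 1, tabW c, tabW d⟩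

namespace Dat

variable (D : Dat)

/-- first letters -/
def ld (k : ℕ) : ℕ := (D.gens k).headD 0

/-- tests not involving the extension -/
noncomputable def baseB : Bool :=
  shapeB D.Vb (fun _ => true) D.N && (shapeB D.V (fun _ => true) D.m && (Nat.ble D.n D.m &&
  (homB D.V (fun _ => true) D.m D.gens D.Vb 0 D.N D.F && allLt D.m fun k => Bool.rec
    (beqL (D.gens k) (D.ld k :: (D.gens k).tail) && (Nat.ble (Nat.succ (D.ld k)) D.N &&
      (allL (D.gens k).tail (fun r => Nat.ble (Nat.succ (D.ld k)) r && Nat.ble (Nat.succ r) D.N) &&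
        allLt k fun j => Nat.ble (Nat.succ (D.ld j)) (D.ld k))))
    (beqL (D.gens k) [] && (beqL (D.V k k) [] && allLt k fun j => beqL (D.V j k) [j, k])) (Nat.ble D.n k))))

/-- conjugation maps `u` to `v` -/
noncomputable def fusB (M : Mp) (u v : List ℕ) : Bool :=
  allL (sub D.gens u) (fun r => Nat.ble (Nat.succ r) D.N && M.lb r) &&
    eqW D.Vb 0 D.N D.F (sub M.cj (sub D.gens u)) (sub D.gens v)

/-- test of a fusion map -/
noncomputable def mpB (M : Mp) : Bool :=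
  shapeB D.Vb M.lb D.N && (shapeB D.V M.l D.m && (homB D.V M.l D.m M.im D.V 0 D.m D.F && allLt D.m fun k =>
    Bool.rec (Nat.ble (Nat.succ k) D.n && !M.lb (D.ld k)) (D.fusB M [k] (M.im k) &&
      ((Nat.ble (Nat.succ k) D.n || beqL (M.im k) [k]) && allL (M.im k) fun r => Nat.ble (Nat.succ r) D.m)) (M.l k)))

/-- `g` acts like the map -/
def Acts (M : Mp) (y : ℕ → G) (g : G) : Prop := ∀ k < D.N, M.lb k = true → g * y k * g⁻¹ = ev y (M.cj k)

/-- values of the small letters -/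
def x (y : ℕ → G) (k : ℕ) : G := ev y (D.gens k)

variable {D} {M : Mp} {y : ℕ → G} {g : G}

theorem fusB_sound (hy : Rel D.Vb (fun _ => True) D.N y) (h : D.Acts M y g) {u v : List ℕ} (e : D.fusB M u v = true) :
    ev (D.x y) u ∈ Sg y (M.lb · = true) 0 D.N ∧ g * ev (D.x y) u * g⁻¹ = ev (D.x y) v := by
  simp only [fusB, Bool.and_eq_true, allL_iff, Nat.ble_eq] at e
  have h1 := eqW_sound (by simpa using hy) e.2
  rw [ev_sub, ev_sub _ _ v, ← ev_congr (g := fun k => MulAut.conj g (y k)) (fun a ha => h a (e.1 a ha).1 (e.1 a ha).2),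
    ← map_ev, ev_sub] at h1
  exact ⟨ev_sub y D.gens u ▸ ev_mem' fun r hr => ⟨r.zero_le, e.1 r hr⟩, h1⟩

/-- consequences of the basic test -/
structure Base (D : Dat) (y : ℕ → G) : Prop where
  sb : Shape D.Vb (fun _ => True) D.N
  s : Shape D.V (fun _ => True) D.m
  le : D.n ≤ D.m
  rb : Rel D.Vb (fun _ => True) D.N y
  r : Rel D.V (fun _ => True) D.m (D.x y)
  st : Strict y 0 D.N
  lead : ∀ k < D.n, D.ld k < D.N ∧ (y (D.ld k))⁻¹ * D.x y k ∈ Sg y (fun _ => True) (D.ld k + 1) D.N ∧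
    Sg (D.x y) (fun _ => True) (k + 1) D.m ≤ Sg y (fun _ => True) (D.ld k + 1) D.N
  cen : ∀ k, D.n ≤ k → k < D.m → D.x y k = 1 ∧ D.V k k = [] ∧ ∀ j < k, D.V j k = [j, k]

theorem base_of [Finite G] (e : D.baseB = true) (hy : Rel D.Vb (fun _ => True) D.N y)
    (hc : 2 ^ D.N ≤ Nat.card (Sg y (fun _ => True) 0 D.N)) : D.Base y := by
  simp only [baseB, Bool.and_eq_true, allLt_iff, Nat.ble_eq] at e
  obtain ⟨h1, h2, h3, h4, h5⟩ := e
  have h6 : Shape D.Vb (fun _ => True) D.N := by simpa using shapeB_sound h1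
  have h7 : ∀ k, D.n ≤ k → k < D.m → D.x y k = 1 ∧ D.V k k = [] ∧ ∀ j < k, D.V j k = [j, k] := fun k e1 e2 => by
    have := h5 k e2
    simp only [Nat.ble_eq_true_of_le e1, Bool.and_eq_true, allLt_iff] at this
    exact ⟨by rw [x, beqL_sound this.1, ev_nil], beqL_sound this.2.1, fun j hj => beqL_sound (this.2.2 j hj)⟩
  have h8 := fun k (e1 : k < D.n) => by
    have := h5 k (by omega)
    rw [show Nat.ble D.n k = false from Bool.eq_false_iff.2 fun e => by have := Nat.le_of_ble_eq_true e; omega] at this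
    simp only [Bool.and_eq_true, allLt_iff, allL_iff, Nat.ble_eq] at this
    exact this
  have h9 : ∀ k < D.n, (y (D.ld k))⁻¹ * D.x y k ∈ Sg y (fun _ => True) (D.ld k + 1) D.N := fun k e1 => by
    rw [x, beqL_sound (h8 k e1).1, ev_cons, inv_mul_cancel_left]
    exact ev_mem' fun r hr => ⟨((h8 k e1).2.2.1 r hr).1, ((h8 k e1).2.2.1 r hr).2, trivial⟩
  refine ⟨h6, by simpa using shapeB_sound h2, h3, hy, fun i j _ _ => homB_sound (by simpa using hy) h4 i j rfl rfl,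
    strict_of_card h6 hy hc, fun k hk => ⟨(h8 k hk).2.1, h9 k hk, Sg_le fun j e1 e2 _ => ?_⟩, h7⟩
  by_cases e3 : j < D.n
  · have := (h8 j e3).2.2.2 k e1
    simpa using mul_mem (X_mem this (h8 j e3).2.1 trivial) (Sg_mono (by omega) (fun _ h => h) (h9 j e3))
  · exact (h7 j (by omega) e2).1 ▸ one_mem _

theorem Base.Sg_eq (h : D.Base y) (a : ℕ) : Sg (D.x y) (fun _ => True) a D.n = Sg (D.x y) (fun _ => True) a D.m :=
  le_antisymm (Sg_le fun _ h1 h2 _ => X_mem h1 (h2.trans_le h.le) trivial) (Sg_le fun j h1 h2 _ =>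
    (lt_or_ge j D.n).elim (fun e => X_mem h1 e trivial) fun e => (h.cen j e h2).1 ▸ one_mem _)

theorem Base.eq_U [Finite G] (h : D.Base y) {K : Subgroup G} (hx : ∀ k < D.n, D.x y k ∈ K)
    (hc : Nat.card ↥(Sg y (fun _ => True) 0 D.N ⊓ K) = 2 ^ D.n) :
    Sg (D.x y) (fun _ => True) 0 D.m = Sg y (fun _ => True) 0 D.N ⊓ K := by
  rw [← h.Sg_eq]
  refine eq_of_le_of_card_ge (Sg_le fun j _ hj _ => ⟨?_, hx j hj⟩) (hc ▸ Strict.le_card (fun k _ hk e => ?_) _ _ (zero_add _))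
  · simpa using mul_mem (X_mem (Nat.zero_le _) (h.lead j hj).1 trivial)
      (Sg_mono (Nat.zero_le _) (fun _ h => h) (h.lead j hj).2.1)
  · obtain ⟨h1, h2, h3⟩ := h.lead k hk
    exact h.st _ (Nat.zero_le _) h1 (by
      convert mul_mem (h3 ((h.Sg_eq _).le e)) (inv_mem h2) using 1; group)

theorem Base.liftOn (h : D.Base y) (hM : D.mpB M = true) (hg : D.Acts M y g) {X : ℕ → Γ}
    (hX : Rel D.V (fun _ => True) D.m X) (hs : Strict X 0 D.m) (h1 : ∀ k < D.m, π (X k) = D.x y k)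
    (h2 : π.range = Sg (D.x y) (fun _ => True) 0 D.m) (h3 : π.ker = Sg X (fun _ => True) D.n D.m)
    (h4 : ∀ z, ι z ∈ π.ker) : LiftOn π ι g ↑(Sg y (M.lb · = true) 0 D.N ⊓ π.range) := by
  classical
  simp only [mpB, Bool.and_eq_true, allLt_iff] at hM
  obtain ⟨m1, m2, m3, m4⟩ := hM
  have a1 : ∀ k < D.m, M.l k = true → _ ∧ (k < D.n ∨ M.im k = [k]) ∧ ∀ r ∈ M.im k, r < D.m := fun k hk e => by
    have := m4 k hk
    simp only [e, Bool.and_eq_true, Bool.or_eq_true, Nat.ble_eq, allL_iff] at this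
    exact ⟨fusB_sound h.rb hg this.1, this.2.1.imp_right beqL_sound, this.2.2⟩
  have a2 : ∀ k < D.m, ¬ M.l k = true → k < D.n ∧ ¬ M.lb (D.ld k) = true := fun k hk e => by
    simpa [e] using m4 k hk
  have a3 : π.ker ≤ Sg X (M.l · = true) 0 D.m := h3 ▸ Sg_le fun j e1 e2 _ =>
    X_mem j.zero_le e2 (by_contra fun e => by have := a2 j e2 e; omega)
  have a4 : ∀ a, π a ∈ Sg y (M.lb · = true) 0 D.N ⊓ π.range → a ∈ Sg X (M.l · = true) 0 D.m := fun a ha => by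
    have := Sg_ind h.s h.r (P := fun _ s => s ∈ Sg y (M.lb · = true) 0 D.N → s ∈ (Sg X (M.l · = true) 0 D.m).map π)
      (fun _ _ => one_mem _) (fun _ _ h => h) (fun b _ e1 s hs ih e2 => by
        by_cases e : M.l b = true
        · exact mul_mem ⟨_, X_mem b.zero_le e1 e, h1 b e1⟩
            (ih ((mul_mem_cancel_left (by simpa using (a1 b e1 e).1.1)).1 e2))
        · obtain ⟨e3, e4, e5⟩ := h.lead b (a2 b e1 e).1
          exact absurd (h.st.lead (shapeB_sound m1) (fun i j _ _ => h.rb i j trivial trivial) e3 e2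
            (mul_assoc _ _ s ▸ mul_mem e4 (e5 hs))) (a2 b e1 e).2) 0 (h2 ▸ ha.2) ha.1
    rwa [← mem_comap, comap_map_eq_self a3] at this
  obtain ⟨ψ, hψ⟩ := exists_hom (shapeB_sound m2) (fun i j _ _ => hX i j trivial trivial)
    (homB_sound (by simpa using hX) m3) hs
  refine ⟨fun a => if e : a ∈ Sg X (M.l · = true) 0 D.m then ψ ⟨a, e⟩ else 1, fun a b ha hb => ?_, fun a ha => ?_,
    fun z => ?_⟩ <;> beta_reduce
  · rw [dif_pos (a4 a ha), dif_pos (a4 b hb), dif_pos (mul_mem (a4 a ha) (a4 b hb)), ← map_mul]; rfl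
  · rw [dif_pos (a4 a ha)]
    refine hom_ext (π.comp ψ) (((MulAut.conj g).toMonoidHom.comp π).comp (Subgroup.subtype _)) 0 (fun j e _ e1 e2 => ?_) _
      (a4 a ha)
    obtain ⟨e3, -, e4⟩ := a1 j e1 e2
    rw [MonoidHom.comp_apply, (hψ j e).resolve_right (by simp [e1, e2]), map_ev, ev_congr fun r hr => h1 r (e4 r hr), ← e3.2]
    simp [h1 j e1]
  · rw [dif_pos (a3 (h4 z))]
    refine hom_ext ψ (Subgroup.subtype _) D.n (fun j e e0 e1 e2 => ?_) ⟨_, a3 (h4 z)⟩ (Sg_le (L := fun _ => True) (fun j e1 e2 _ =>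
      X_mem e1 e2 (by_contra fun e => by have := a2 j e2 e; omega)) (h3.le (h4 z)))
    rw [(hψ j e).resolve_right (by simp [e1, e2]), (a1 j e1 e2).2.1.resolve_left (by omega)]; simp

open Cfsg.Agent.Chev (Sys)
variable {D' : ChevalleyDatum} {C : Chev.Cert D'} {F : Type*} [Field F] {S : Sys C F G} {T : Stb S} {K : Subgroup G}
  [Finite F] [Finite G] [CharP F 2]

theorem Base.stem (h : D.Base y) (e1 : allLt D.m (stepB D.V D.m D.F) = true)
    (e2 : ∀ k, D.n ≤ k → k < D.m → ∃ R, commB D.V D.m D.F k R = true) (hφ : Function.Injective S.φ) (hK : T.BN K)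
    (hU : Sg y (fun _ => True) 0 D.N = S.Up) (hx : ∀ k < D.n, D.x y k ∈ K) (hc : Nat.card ↥(S.Up ⊓ K) = 2 ^ D.n)
    (hH : ∀ a ∈ K, a ∈ S.H → a ∈ Submonoid.closure
      {g | g ∈ K ∧ g ∈ S.H ∧ ∃ M, D.mpB M = true ∧ D.Acts M y g ∧ ∀ k, M.lb k = true})
    (hn : ∀ i, ∃ g ∈ K, S.Over g (C.w0 (T.orb i)) ∧ ∃ M, D.mpB M = true ∧ D.Acts M y g ∧
      S.UJ (T.orb i) ≤ Sg y (M.lb · = true) 0 D.N) :
    ∃ (Z : Type) (_ : CommGroup Z), Mult.Stem K Z ∧ Nat.card Z = 2 ^ (D.m - D.n) ∧ ∀ z : Z, z * z = 1 := by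
  obtain ⟨Γ, _, _, X, h1, h2, h3⟩ := exists_pc h.s (allLt_iff.1 e1)
  obtain ⟨ψ, hψ⟩ := exists_hom h.s h1 h.r h2
  let π : Γ →* G := ψ.comp ((MonoidHom.id Γ).codRestrict _ fun x => h3 ▸ mem_top x)
  have a1 : ∀ k < D.m, π (X k) = D.x y k := fun k hk => (hψ k _).resolve_right (by simp [hk])
  have a2 : π.range = Sg (D.x y) (fun _ => True) 0 D.m := by
    rw [MonoidHom.range_eq_map, ← h3, map_Sg, Sg, Sg, Set.image_congr fun j hj => a1 j hj.2.1]
  have a3 : π.range = S.Up ⊓ K := by rw [a2, h.eq_U hx (hU ▸ hc), hU]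
  have a4 : Nat.card π.ker * 2 ^ D.n ≤ 2 ^ (D.m - D.n) * 2 ^ D.n := by
    rw [← pow_add, Nat.sub_add_cancel h.le, ← hc, ← a3, ← index_ker, card_mul_index, ← card_top, ← h3]
    simpa [Sg_top] using card_Sg_le_pow h.s h1 D.m 0
  have a5 : Sg X (fun _ => True) D.n D.m ≤ π.ker := Sg_le fun j e1 e2 _ => (a1 j e2).trans (h.cen j e1 e2).1
  have a6 := h2.le_card _ _ (Nat.add_sub_cancel' h.le)
  replace a4 := Nat.le_of_mul_le_mul_right a4 (Nat.two_pow_pos _)
  have a7 := (eq_of_le_of_card_ge a5 (a4.trans a6)).symm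
  have a8 : π.ker ≤ center Γ := a7 ▸ Sg_le fun k e1 e2 _ => mem_center_iff.2 fun g =>
    Sg_le (H := centralizer {X k}) (fun j _ e3 _ => mem_centralizer_singleton_iff.2 (by
      rcases lt_trichotomy j k with e | rfl | e
      · simp [h1 j k trivial trivial e.le e2, (h.cen k e1 e2).2.2 j e]
      · rfl
      · simp [h1 k j trivial trivial e.le e3, (h.cen j (by omega) e3).2.2 k e])) (h3 ▸ mem_top g) |>
      mem_centralizer_singleton_iff.1
  letI : CommGroup π.ker := { (inferInstance : Group π.ker) with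
    mul_comm := fun a b => Subtype.ext (mem_center_iff.1 (a8 b.2) a) }
  have a9 : Nat.card π.ker = 2 ^ (D.m - D.n) := a4.antisymm (a7 ▸ a6)
  have b1 : ∀ (z : π.ker) a, π.ker.subtype z * a = a * π.ker.subtype z := fun z a => (mem_center_iff.1 (a8 z.2) a).symm
  have b2 := fun M g (e1 : D.mpB M = true) (e2 : D.Acts M y g) =>
    h.liftOn (ι := π.ker.subtype) e1 e2 h1 h2 a1 a2 a7 fun z => z.2
  have b3 := fun g => liftOn_all hK.toGood a3 b1 (fun a e1 e2 => by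
    refine (Submonoid.closure_induction (motive := fun a _ => a ∈ K ∧ a ∈ S.H ∧ LiftOn π π.ker.subtype a π.range) ?_
      ⟨one_mem _, one_mem _, (map_one π ▸ liftOn_inner b1 1).mono fun _ _ => trivial⟩ (fun a b _ _ ha hb =>
        ⟨mul_mem ha.1 hb.1, mul_mem ha.2.1 hb.2.1, (ha.2.2.mul hb.2.2).mono fun s hs => ⟨hs, ?_⟩⟩) (hH a e1 e2)).2.2
    · rintro g ⟨e1, e2, M, e3, e4, e5⟩
      refine ⟨e1, e2, (b2 M g e3 e4).mono fun s hs => ⟨?_, hs⟩⟩
      simpa [e5, hU] using (a3.le hs).1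
    · exact a3.ge ⟨Sys.H_conj_U hb.2.1 (a3.le hs).1, K.mul_mem (K.mul_mem hb.1 (a3.le hs).2) (K.inv_mem hb.1)⟩)
    (fun i => by
      obtain ⟨g, e1, e2, M, e3, e4, e5⟩ := hn i
      exact ⟨g, e1, e2, (b2 M g e3 e4).mono fun s hs =>
        ⟨e5 hs.1, a3.ge ⟨S.U_le_Up (fun _ h => h.1) hs.1, hs.2⟩⟩⟩) (g := g)
  let π' : Γ →* K := π.codRestrict K fun a => (a3.le ⟨a, rfl⟩).2
  have b4 : ∀ s : K, s ∈ π'.range ↔ s.1 ∈ π.range := fun s => exists_congr fun a => Subtype.ext_iff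
  refine ⟨π.ker, _, stem_of_stable (π := π') (ι := π.ker.subtype) Subtype.val_injective b1
    (fun a => Subtype.ext_iff.trans ⟨fun e => ⟨⟨a, e⟩, rfl⟩, by rintro ⟨z, rfl⟩; exact z.2⟩) (fun z => ?_) ?_ fun g => ?_,
    a9, fun z => Subtype.ext ?_⟩
  · refine Sg_le (fun k e3 e4 _ => ?_) (a7.le z.2)
    obtain ⟨R, hR⟩ := e2 k e3 e4
    exact commB_sound h1 hR
  · rw [a9, show π'.range = (hK.sylow hφ 2 : Subgroup K) from Subgroup.ext fun s => by
      rw [b4, a3]; exact and_iff_left s.2]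
    exact (Nat.prime_two.coprime_iff_not_dvd.2 (Sylow.not_dvd_index _)).symm.pow_right _
  · obtain ⟨f, e3, e4, e5⟩ := b3 g g.2
    exact ⟨f, fun a b ha hb => e3 a b ⟨⟨a, rfl⟩, (b4 _).1 ha.2⟩ ⟨⟨b, rfl⟩, (b4 _).1 hb.2⟩,
      fun a ha => Subtype.ext (e4 a ⟨⟨a, rfl⟩, (b4 _).1 ha.2⟩), e5⟩
  · obtain ⟨c, e3, e4⟩ := Sg_le (H := ((powMonoidHom 2 : π.ker →* π.ker).ker).map π.ker.subtype) (fun k e3 e4 _ =>
      ⟨⟨X k, a5 (X_mem e3 e4 trivial)⟩, Subtype.ext (by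
        simpa [(h.cen k e3 e4).2.1, pow_two] using h1 k k trivial trivial le_rfl e4), rfl⟩) (a7.le z.2)
    rw [← (Subtype.ext e4 : c = z), ← pow_two]
    exact congrArg Subtype.val e3

/-- the rules of `P` hold -/
noncomputable def rulesB (D : Dat) (P : PC) (M : ℕ → Mp) : Bool :=
  allL P.pcRules (fun r => allL (appL r.1 r.2) (fun a => Nat.ble (Nat.succ a) D.n) &&
    eqW D.Vb 0 D.N D.F (sub D.gens r.1) (sub D.gens r.2)) &&
  allL P.fp fun t => Nat.ble D.n t.1 && (allL (appL (P.unp t.2.1) (P.unp t.2.2)) (fun a => Nat.ble (Nat.succ a) D.n) &&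
    D.fusB (M (t.1 - D.n)) (P.unp t.2.1) (P.unp t.2.2))

theorem Base.pbound (h : D.Base y) (hφ : Function.Injective S.φ) (hK : T.BN K)
    (hU : Sg y (fun _ => True) 0 D.N = S.Up) (hx : ∀ k < D.n, D.x y k ∈ K) (hc : Nat.card ↥(S.Up ⊓ K) = 2 ^ D.n)
    {P : PC} (hp : P.p = 2) (hn : P.n = D.n) {M : ℕ → Mp} (hg : ∀ k, ∃ g ∈ K, D.Acts (M k) y g) (e : D.rulesB P M = true)
    {a b : ℕ} {bs : List (List ℕ)} {zs : List (List ℕ × ℕ × ℕ)} {gs : List (List (List ℕ))} {ss : List Spec}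
    (h1 : check P (spC a b bs zs gs) gs ss = true) : PBound K 2 (spC a b bs zs gs).e := by
  choose g hg hg' using hg
  let x : ℕ → K := fun k => if e : k < D.n then ⟨_, hx k e⟩ else ⟨_, hg (k - D.n)⟩
  have a1 : ∀ w : List ℕ, (∀ a ∈ w, a < D.n) → (ev x w).1 = ev (D.x y) w := fun w hw =>
    (map_ev x K.subtype w).trans (ev_congr fun a ha => by simp [x, hw a ha])
  simp only [rulesB, Bool.and_eq_true, allL_iff, Nat.ble_eq, appL_eq, List.mem_append] at e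
  have a2 : Nat.card (hK.sylow hφ 2) = 2 ^ D.n :=
    hc ▸ ((card_map_of_injective K.subtype_injective).symm.trans (congrArg (fun H : Subgroup G => Nat.card H)
      (subgroupOf_map_subtype _ _)))
  refine hp ▸ pbound_of_check P hp x (fun r hr => Subtype.ext ?_) ?_ ?_ h1
  · rw [PC.rules, appL_eq, List.mem_append, PC.fusRules, mapL_eq, List.mem_map] at hr
    obtain hr | ⟨t, ht, rfl⟩ := hr
    · rw [a1 _ fun a ha => (e.1 r hr).1 a (.inl ha), a1 _ fun a ha => (e.1 r hr).1 a (.inr ha)]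
      exact (ev_sub _ _ _).symm.trans ((eqW_sound (by simpa using h.rb) (e.1 r hr).2).trans (ev_sub _ _ _))
    · obtain ⟨e1, e2, e3⟩ := e.2 t ht
      have := (fusB_sound h.rb (hg' _) e3).2
      rw [← a1 _ fun a ha => e2 a (.inl ha), ← a1 _ fun a ha => e2 a (.inr ha)] at this
      simpa [appL_eq, x, e1.not_gt] using eq_mul_of_mul_inv_eq this
  · rw [hp, hn, ← card_map_of_injective K.subtype_injective, MonoidHom.map_closure, Set.image_image,
      Set.image_congr (g := D.x y) (s := Set.Iio D.n) fun k hk => by simp [x, Set.mem_Iio.1 hk], ← hc, ← hU, ← h.eq_U hx (hU ▸ hc), ← h.Sg_eq]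
    simp [Sg, Set.Iio]
  · rw [hp, hn, ← (hK.sylow hφ 2 : Subgroup K).card_mul_index, a2, pow_succ, Nat.mul_dvd_mul_iff_left (Nat.two_pow_pos _)]
    exact Sylow.not_dvd_index _

omit [Finite F] [CharP F 2] in
theorem Base.perfect (h : D.Base y) (hK : T.Good K) (hU : Sg y (fun _ => True) 0 D.N = S.Up) (hx : ∀ k < D.n, D.x y k ∈ K)
    (hc : Nat.card ↥(S.Up ⊓ K) = 2 ^ D.n) (hgen : K ≤ (S.Up ⊓ K) ⊔ (S.Um ⊓ K)) {M : ℕ → Mp}
    (hg : ∀ k, ∃ g ∈ K, D.Acts (M k) y g) {c : ℕ → ℕ × ℕ × List ℕ} (e : (allLt D.n fun k =>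
      D.fusB (M (c k).1) [(c k).2.1] [k] && (Nat.ble (Nat.succ (c k).2.1) D.n && commB D.V D.m D.F (c k).2.1 (c k).2.2)) = true) :
    commutator K = ⊤ := by
  simp only [allLt_iff, Bool.and_eq_true, Nat.ble_eq] at e
  let x : ℕ → K := fun k => if e : k < D.n then ⟨_, hx k e⟩ else 1
  have a1 : ∀ k < D.m, (x k).1 = D.x y k := fun k hk => by
    simp only [x]; split_ifs with e
    exacts [rfl, (h.cen k (by omega) hk).1.symm]
  have a2 : Rel D.V (fun _ => True) D.m x := fun i j _ _ e1 e2 => Subtype.ext (by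
    obtain ⟨t, e3, ht⟩ := h.s i j trivial trivial e1 e2
    rw [coe_mul, a1 j e2, a1 i (by omega), h.r i j trivial trivial e1 e2]
    refine ((map_ev x K.subtype _).trans (ev_congr fun r hr => a1 r ?_)).symm
    rw [e3] at hr
    split_ifs at hr
    exacts [(ht r hr).2.1, (List.mem_cons.1 hr).elim (by omega) fun hr => (ht r hr).2.1])
  have a3 : ∀ g ∈ K, ∀ u ∈ (commutator K).map K.subtype, g * u * g⁻¹ ∈ (commutator K).map K.subtype := by
    rintro g hg _ ⟨u, hu, rfl⟩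
    exact ⟨_, Normal.conj_mem inferInstance u hu ⟨g, hg⟩, rfl⟩
  have a4 : S.Up ⊓ K ≤ (commutator K).map K.subtype := by
    rw [← hU, ← h.eq_U hx (hU ▸ hc), ← h.Sg_eq]
    refine Sg_le fun k _ hk _ => ?_
    obtain ⟨g, e1, e2⟩ := hg (c k).1
    have := (fusB_sound h.rb e2 (e k hk).1).2
    rw [ev_singleton, ev_singleton] at this
    exact this ▸ a3 g e1 _ ⟨_, commB_sound a2 (e k hk).2.2, a1 _ ((e k hk).2.1.trans h.le)⟩
  obtain ⟨m, e1, e2⟩ := hK.ex_w0
  refine map_injective K.subtype_injective (le_antisymm (map_mono le_top) ?_)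
  rw [← MonoidHom.range_eq_map, range_subtype]
  refine hgen.trans (sup_le a4 fun u hu => ?_)
  simpa [mul_assoc] using a3 _ (inv_mem e1) _ (a4 ⟨S.w0_conj_Um e2 hu.1, K.mul_mem (K.mul_mem e1 hu.2) (K.inv_mem e1)⟩)

end Dat

end Cfsg.Agent.Cor
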